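/-
S0518 (helper12's cut) package [O3]: uniqueness facts of one side (hedge by helper81).
-/
import Mathlib
import Cfsg.Agent.Lib.Helper12.KS.Defs
import Cfsg.Agent.Lib.Helper12.KS.O1

set_option autoImplicit false
open Cfsg Cfsg.Agent.Lib.Helper12.KS

namespace Cfsg.Agent.Lib.Helper81.KS

universe u

theorem mdl_central : ∀ m : Mdl, (∀ a : Mdl, a * m = m * a) → m = 1 ∨ m = zM := by
  decide +kernel

theorem mdl_nT : ∀ m : Mdl, (∀ a : Mdl, inD a.1 → inD (m * a * m⁻¹).1) → inD m.1 := by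
  decide +kernel

theorem mdl_comm4 : ∀ m : Mdl, (∀ a : Mdl, (a * m * a⁻¹ * m⁻¹) ^ 4 = 1) → inV m.1 := by
  decide +kernel

theorem mdl_gen : ∀ m : Mdl, inV m.1 → m.1 ≠ 1 → ∀ w : Mdl, inV w.1 ∧ w.2 = 1 →
    ∃ a b : Mdl, w = (a * m * a⁻¹) * (b * m * b⁻¹) := by
  decide +kernel

theorem mdl_fst_one : ∀ m : Mdl, m.1 = 1 → m = 1 ∨ m = zM := by
  decide +kernel

/-- [O3] -/
theorem pkgO3 : PkgO3.{u} := by
  intro G _ _ P T Q W c sd
  obtain ⟨e, hT, hQ, hW, hc⟩ := sd.ex
  have b1 := pkgO1 sd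
  have hcz : e ⟨c, sd.c_mem⟩ = zM := (hc ⟨c, sd.c_mem⟩).mp rfl
  refine ⟨?_, ?_, ?_⟩
  · -- central
    intro z hz hcen
    have h1 : ∀ a : Mdl, a * e ⟨z, hz⟩ = e ⟨z, hz⟩ * a := by
      intro a
      have h2 := hcen (e.symm a : G) (e.symm a).2
      have h3 : e.symm a * ⟨z, hz⟩ = ⟨z, hz⟩ * e.symm a := Subtype.ext h2
      have h4 := congrArg e h3
      simpa using h4
    rcases mdl_central _ h1 with h | h
    · left
      have h2 : (⟨z, hz⟩ : ↥P) = 1 := e.injective (by rw [h, map_one])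
      exact congrArg Subtype.val h2
    · right
      have h2 : (⟨z, hz⟩ : ↥P) = ⟨c, sd.c_mem⟩ := e.injective (by rw [h, hcz])
      exact congrArg Subtype.val h2
  · -- four
    intro N hNP hN4 hNn
    have hfinN : Finite ↥N := Nat.finite_of_card_ne_zero (by rw [hN4]; norm_num)
    -- every element of `N` is in `Q`-shape
    have hV : ∀ n (hn : n ∈ N), inV (e ⟨n, hNP hn⟩).1 := by
      intro n hn
      apply mdl_comm4
      intro a
      have h1 : (e.symm a : G) * n * (e.symm a : G)⁻¹ * n⁻¹ ∈ N :=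
        N.mul_mem (hNn _ (e.symm a).2 n hn) (N.inv_mem hn)
      have h2 : ((⟨_, h1⟩ : ↥N)) ^ 4 = 1 := by
        have h0 := pow_card_eq_one' (G := ↥N) (x := ⟨_, h1⟩)
        rwa [hN4] at h0
      have h3 : ((e.symm a : G) * n * (e.symm a : G)⁻¹ * n⁻¹) ^ 4 = 1 := by
        have := congrArg Subtype.val h2
        simpa using this
      have h4 : (e.symm a * ⟨n, hNP hn⟩ * (e.symm a)⁻¹ * (⟨n, hNP hn⟩ : ↥P)⁻¹) ^ 4 = 1 :=
        Subtype.ext (by simpa using h3)
      have h5 := congrArg e h4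
      simpa using h5
    by_cases hex : ∃ n, ∃ hn : n ∈ N, (e ⟨n, hNP hn⟩).1 ≠ 1
    · obtain ⟨n, hn, hn1⟩ := hex
      have hWN : W ≤ N := by
        intro x hx
        have hxP : x ∈ P := sd.W_le hx
        obtain ⟨a, b, hab⟩ := mdl_gen _ (hV n hn) hn1 (e ⟨x, hxP⟩) ((hW ⟨x, hxP⟩).mp hx)
        have h1 : (⟨x, hxP⟩ : ↥P) = (e.symm a * ⟨n, hNP hn⟩ * (e.symm a)⁻¹) *
            (e.symm b * ⟨n, hNP hn⟩ * (e.symm b)⁻¹) := by
          apply e.injective
          rw [hab]
          simp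
        have h2 := congrArg Subtype.val h1
        simp only [Subgroup.coe_mul, InvMemClass.coe_inv] at h2
        rw [h2]
        exact N.mul_mem (hNn _ (e.symm a).2 n hn) (hNn _ (e.symm b).2 n hn)
      exact (Subgroup.eq_of_le_of_card_ge hWN (by rw [hN4, b1.card_W])).symm
    · exfalso
      have hall : ∀ n (hn : n ∈ N), (e ⟨n, hNP hn⟩).1 = 1 := by
        intro n hn
        by_contra h
        exact hex ⟨n, hn, h⟩
      have hle : N ≤ Subgroup.zpowers c := by
        intro n hn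
        rcases mdl_fst_one _ (hall n hn) with h | h
        · have h2 : (⟨n, hNP hn⟩ : ↥P) = 1 := e.injective (by rw [h, map_one])
          have h3 : n = 1 := congrArg Subtype.val h2
          rw [h3]; exact Subgroup.one_mem _
        · have h2 : (⟨n, hNP hn⟩ : ↥P) = ⟨c, sd.c_mem⟩ := e.injective (by rw [h, hcz])
          have h3 : n = c := congrArg Subtype.val h2
          rw [h3]; exact Subgroup.mem_zpowers c
      have hord : orderOf c = 2 :=
        orderOf_eq_prime (by rw [pow_two]; exact b1.c_sq) b1.c_ne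
      have hfinc : Finite ↥(Subgroup.zpowers c) :=
        Nat.finite_of_card_ne_zero (by rw [Nat.card_zpowers, hord]; norm_num)
      have h1 := Subgroup.card_le_of_le hle
      rw [hN4, Nat.card_zpowers, hord] at h1
      omega
  · -- nT
    intro p hp hpT
    have h1 : inD (e ⟨p, hp⟩).1 := by
      apply mdl_nT
      intro a ha
      have haT : (e.symm a : G) ∈ T := (hT (e.symm a)).mpr (by simpa using ha)
      have h2 := hpT _ haT
      have h3 := (hT (⟨p, hp⟩ * e.symm a * ⟨p, hp⟩⁻¹)).mp (by simpa using h2)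
      simpa using h3
    exact (hT ⟨p, hp⟩).mpr h1

end Cfsg.Agent.Lib.Helper81.KS
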